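import Cfsg.Agent.CosetEnum.MU6.T2Data

/-! Permutation table (generated data, owner: helper28). -/

set_option autoImplicit false
set_option maxRecDepth 1000000

namespace Cfsg.Agent.CosetEnum.MU6T2

theorem r10 : allR (tst P iv lets RL) 900 90 = true := by decide +kernel

theorem o10 : allR (orbC P lets [] 0 1344) 900 90 = true := by decide +kernel

end Cfsg.Agent.CosetEnum.MU6T2
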