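import Cfsg.Agent.CosetEnum.Step
import Cfsg.Agent.CosetEnum.Front2
import Cfsg.Agent.CosetEnum.MU6.AP0
import Cfsg.Agent.CosetEnum.MU6.BP0
import Cfsg.Agent.CosetEnum.MU6.CP0
import Cfsg.Agent.CosetEnum.MU6.CP1
import Cfsg.Agent.CosetEnum.MU6.CP2
import Cfsg.Agent.CosetEnum.MU6.DP0
import Cfsg.Agent.CosetEnum.MU6.DP1
import Cfsg.Agent.CosetEnum.MU6.DP2
import Cfsg.Agent.CosetEnum.MU6.DP3
import Cfsg.Agent.CosetEnum.Level
import Cfsg.Agent.CosetEnum.MU6.T1R0
import Cfsg.Agent.CosetEnum.MU6.T1R1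
import Cfsg.Agent.CosetEnum.MU6.T1R2
import Cfsg.Agent.CosetEnum.MU6.T1R3
import Cfsg.Agent.CosetEnum.MU6.T1R4
import Cfsg.Agent.CosetEnum.MU6.T1R5
import Cfsg.Agent.CosetEnum.MU6.T1R6
import Cfsg.Agent.CosetEnum.MU6.T1R7
import Cfsg.Agent.CosetEnum.MU6.T1R8
import Cfsg.Agent.CosetEnum.MU6.T1R9
import Cfsg.Agent.CosetEnum.MU6.T1R10
import Cfsg.Agent.CosetEnum.MU6.T1R11
import Cfsg.Agent.CosetEnum.MU6.T1R12
import Cfsg.Agent.CosetEnum.MU6.T1R13
import Cfsg.Agent.CosetEnum.MU6.T1R14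
import Cfsg.Agent.CosetEnum.MU6.T2R0
import Cfsg.Agent.CosetEnum.MU6.T2R1
import Cfsg.Agent.CosetEnum.MU6.T2R2
import Cfsg.Agent.CosetEnum.MU6.T2R3
import Cfsg.Agent.CosetEnum.MU6.T2R4
import Cfsg.Agent.CosetEnum.MU6.T2R5
import Cfsg.Agent.CosetEnum.MU6.T2R6
import Cfsg.Agent.CosetEnum.MU6.T2R7
import Cfsg.Agent.CosetEnum.MU6.T2R8
import Cfsg.Agent.CosetEnum.MU6.T2R9
import Cfsg.Agent.CosetEnum.MU6.T2R10
import Cfsg.Agent.CosetEnum.MU6.T2R11
import Cfsg.Agent.CosetEnum.MU6.T2R12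
import Cfsg.Agent.CosetEnum.MU6.T2R13
import Cfsg.Agent.CosetEnum.MU6.T2R14

/-! Certificates of coset enumerations and tables (generated, owner: helper28). -/

set_option autoImplicit false
set_option maxRecDepth 1000000

namespace Cfsg.Agent.CosetEnum.MU6A

theorem st : staticA 6 iv (RL.map expand) subs P L = true := by decide +kernel

theorem seg : Seg P L P.m 60 :=
  (Seg.nil).snoc part0

theorem cert : Cert 6 iv RL subs 60 := fun g H hl hrels hsubs =>
  upperA g H 6 iv hl (RL.map expand) subs hrels hsubs P L rfl st seg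

end Cfsg.Agent.CosetEnum.MU6A
namespace Cfsg.Agent.CosetEnum.MU6B

theorem st : staticA 10 iv (RL.map expand) subs P L = true := by decide +kernel

theorem seg : Seg P L P.m 432 :=
  (Seg.nil).snoc part0

theorem cert : Cert 10 iv RL subs 432 := fun g H hl hrels hsubs =>
  upperA g H 10 iv hl (RL.map expand) subs hrels hsubs P L rfl st seg

end Cfsg.Agent.CosetEnum.MU6B
namespace Cfsg.Agent.CosetEnum.MU6C

theorem st : staticA 12 iv (RL.map expand) subs P L = true := by decide +kernel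

theorem seg : Seg P L P.m 528 :=
  (((Seg.nil).snoc part0).snoc part1).snoc part2

theorem cert : Cert 12 iv RL subs 528 := fun g H hl hrels hsubs =>
  upperA g H 12 iv hl (RL.map expand) subs hrels hsubs P L rfl st seg

end Cfsg.Agent.CosetEnum.MU6C
namespace Cfsg.Agent.CosetEnum.MU6D

theorem st : staticA 14 iv (RL.map expand) subs P L = true := by decide +kernel

theorem seg : Seg P L P.m 8064 :=
  ((((Seg.nil).snoc part0).snoc part1).snoc part2).snoc part3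

theorem cert : Cert 14 iv RL subs 8064 := fun g H hl hrels hsubs =>
  upperA g H 14 iv hl (RL.map expand) subs hrels hsubs P L rfl st seg

end Cfsg.Agent.CosetEnum.MU6D
namespace Cfsg.Agent.CosetEnum.MU6T1

theorem st : letsB 14 iv lets RL = true := by decide +kernel

theorem tabOK : TabOK P 14 iv lets RL := ⟨st, ((((((((((((((Cov.of r0 rfl).trans (Cov.of r1 rfl)).trans (Cov.of r2 rfl)).trans (Cov.of r3 rfl)).trans (Cov.of r4 rfl)).trans (Cov.of r5 rfl)).trans (Cov.of r6 rfl)).trans (Cov.of r7 rfl)).trans (Cov.of r8 rfl)).trans (Cov.of r9 rfl)).trans (Cov.of r10 rfl)).trans (Cov.of r11 rfl)).trans (Cov.of r12 rfl)).trans (Cov.of r13 rfl)).trans (Cov.of r14 rfl)⟩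

theorem covO : Cov (orbC P lets [] 0 P.m) 0 P.m := ((((((((((((((Cov.of o0 rfl).trans (Cov.of o1 rfl)).trans (Cov.of o2 rfl)).trans (Cov.of o3 rfl)).trans (Cov.of o4 rfl)).trans (Cov.of o5 rfl)).trans (Cov.of o6 rfl)).trans (Cov.of o7 rfl)).trans (Cov.of o8 rfl)).trans (Cov.of o9 rfl)).trans (Cov.of o10 rfl)).trans (Cov.of o11 rfl)).trans (Cov.of o12 rfl)).trans (Cov.of o13 rfl)).trans (Cov.of o14 rfl)

end Cfsg.Agent.CosetEnum.MU6T1
namespace Cfsg.Agent.CosetEnum.MU6T2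

theorem st : letsB 14 iv lets RL = true := by decide +kernel

theorem tabOK : TabOK P 14 iv lets RL := ⟨st, ((((((((((((((Cov.of r0 rfl).trans (Cov.of r1 rfl)).trans (Cov.of r2 rfl)).trans (Cov.of r3 rfl)).trans (Cov.of r4 rfl)).trans (Cov.of r5 rfl)).trans (Cov.of r6 rfl)).trans (Cov.of r7 rfl)).trans (Cov.of r8 rfl)).trans (Cov.of r9 rfl)).trans (Cov.of r10 rfl)).trans (Cov.of r11 rfl)).trans (Cov.of r12 rfl)).trans (Cov.of r13 rfl)).trans (Cov.of r14 rfl)⟩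

theorem covO : Cov (orbC P lets [] 0 P.m) 0 P.m := ((((((((((((((Cov.of o0 rfl).trans (Cov.of o1 rfl)).trans (Cov.of o2 rfl)).trans (Cov.of o3 rfl)).trans (Cov.of o4 rfl)).trans (Cov.of o5 rfl)).trans (Cov.of o6 rfl)).trans (Cov.of o7 rfl)).trans (Cov.of o8 rfl)).trans (Cov.of o9 rfl)).trans (Cov.of o10 rfl)).trans (Cov.of o11 rfl)).trans (Cov.of o12 rfl)).trans (Cov.of o13 rfl)).trans (Cov.of o14 rfl)

end Cfsg.Agent.CosetEnum.MU6T2
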